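import Mathlib
import Cfsg.Agent.Transfer.Factorization

/-!
# Thompson's reduction, with sections written as `K / R`
-/

set_option autoImplicit false

namespace Cfsg.Agent.Transfer

open Subgroup

universe u

variable {p : ℕ}

theorem thompson_reduction_section [Fact p.Prime]
    (W : ∀ (Q : Type u) [Group Q], Subgroup Q) (hW : IsCharPFunctor p W)
    {G : Type u} [Group G] [Finite G] (S : Sylow p G)
    (hS : HasNormalPComplement p
      (normalizer ((inducedFunctor W (S : Subgroup G) : Subgroup G) : Set G)))
    (hd : ∀ (K R : Subgroup G) [(R.subgroupOf K).Normal] (T : Sylow p (K ⧸ R.subgroupOf K)),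
      ThompsonMin p (K ⧸ R.subgroupOf K) T →
        (inducedFunctor W (T : Subgroup (K ⧸ R.subgroupOf K))).Normal) :
    HasNormalPComplement p G := by
  refine thompson_reduction_functor W hW (fun X _ => IsSectionOf G X)
    (fun X _ _ h H => h.subgroup H) (fun X _ _ h N _ => h.quotient N) ?_ G (isSectionOf_self G) S hS
  intro X _ _ T hX hmin
  obtain ⟨K, R, hR, ⟨e⟩⟩ := hX.exists_mulEquiv
  have h2 : (inducedFunctor W ((T : Subgroup X).map e.symm.toMonoidHom)).Normal :=
    hd K R _ (hmin.of_mulEquiv e.symm)
  have hinj : Function.Injective e.symm.toMonoidHom := e.symm.injective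
  rw [inducedFunctor_map hW _ T.2
    (by rw [(MonoidHom.ker_eq_bot_iff _).mpr hinj, inf_bot_eq])] at h2
  have h3 := h2.comap e.symm.toMonoidHom
  rwa [comap_map_eq_self_of_injective hinj] at h3

theorem le_normalizer_inducedFunctor {W : ∀ (Q : Type u) [Group Q], Subgroup Q}
    (hW : IsCharPFunctor p W) {G : Type u} [Group G] [Finite G] {P : Subgroup G}
    (hP : IsPGroup p P) :
    normalizer (P : Set G) ≤ normalizer ((inducedFunctor W P : Subgroup G) : Set G) :=
  have := characteristic_of_isCharPFunctor hW hP
  Core.normalizer_le_normalizer_map_subtype _ _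

/-- In the minimal configuration a subgroup normalized by `S` is normal or has normalizer `S`. -/
theorem ThompsonMin.normal_or_normalizer_eq {G : Type*} [Group G] {S : Sylow p G}
    (h : ThompsonMin p G S) {Y : Subgroup G} (hY : (S : Subgroup G) ≤ normalizer (Y : Set G)) :
    Y.Normal ∨ normalizer (Y : Set G) = S :=
  hY.eq_or_lt.symm.imp (fun h1 => normalizer_eq_top_iff.mp (h.coatom.2 _ h1)) Eq.symm

end Cfsg.Agent.Transfer
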